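import Cfsg.Agent.Lib.Helper86.O73.FiData
import Cfsg.Agent.Lib.Helper86.O73.Pts

/-!
# The matrices of the generators of `⟨b, …, i⟩ ≤ Fi₂₂` are isometries, part 3
-/

set_option autoImplicit false

namespace Cfsg.Agent.Lib.Helper86.FiO7Chk

open Cfsg.Agent.Lib.Helper86.FiO7Data Cfsg.Agent.Lib.Helper86.O73

theorem hM2_6 : isoN (mc 6) := by decide +kernel

theorem hM2_7 : isoN (mc 7) := by decide +kernel

end Cfsg.Agent.Lib.Helper86.FiO7Chk
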