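import Cfsg.Agent.Lib.Helper86.O73.FiSlpDef

/-!
# Kernel checks of the straight-line program of the nodes for `⟨b, …, i⟩ ≤ Fi₂₂`, part 2
-/

set_option autoImplicit false

namespace Cfsg.Agent.Lib.Helper86.FiO7Chk

open Cfsg.Agent.Lib.Helper86.FiO7Data Cfsg.Agent.Lib.Helper86.PermChain

set_option maxRecDepth 100000 in
theorem chk_slp_16 : slpBlk 16 = true := by decide +kernel

set_option maxRecDepth 100000 in
theorem chk_slp_17 : slpBlk 17 = true := by decide +kernel

set_option maxRecDepth 100000 in
theorem chk_slp_18 : slpBlk 18 = true := by decide +kernel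

set_option maxRecDepth 100000 in
theorem chk_slp_19 : slpBlk 19 = true := by decide +kernel

set_option maxRecDepth 100000 in
theorem chk_slp_20 : slpBlk 20 = true := by decide +kernel

set_option maxRecDepth 100000 in
theorem chk_slp_21 : slpBlk 21 = true := by decide +kernel

set_option maxRecDepth 100000 in
theorem chk_slp_22 : slpBlk 22 = true := by decide +kernel

set_option maxRecDepth 100000 in
theorem chk_slp_23 : slpBlk 23 = true := by decide +kernel

end Cfsg.Agent.Lib.Helper86.FiO7Chk
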