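import Cfsg.Agent.Lib.Helper29.FiA.Data
import Cfsg.Agent.Lib.Helper86.O73.FiSlp0
import Cfsg.Agent.Lib.Helper86.O73.FiSlp1
import Cfsg.Agent.Lib.Helper86.O73.FiSlp2
import Cfsg.Agent.Lib.Helper86.O73.FiIso0
import Cfsg.Agent.Lib.Helper86.O73.FiIso1
import Cfsg.Agent.Lib.Helper86.O73.FiIso2
import Cfsg.Agent.Lib.Helper86.O73.FiIso3

/-!
# Kernel checks for the action of `⟨b, …, i⟩ ≤ Fi₂₂` on 351 points and its comparison with the
orthogonal group of dimension 7 over `𝔽₃`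
-/

set_option autoImplicit false

namespace Cfsg.Agent.Lib.Helper86.FiO7Chk

open Cfsg.Agent.Lib.Helper86.FiO7Data Cfsg.Agent.Lib.Helper86.PermChain
open Cfsg.Agent.Lib.Helper86.O73
open Cfsg.Agent.Lib.Helper29.TcPerm Cfsg.Agent.Lib.Helper29

/-- the check at the point `16 * i` of the representation on 3510 points: if it lies in the orbit
of length 351, the generators `b, …, i` act on it as their tables say -/
noncomputable def chkO (i : ℕ) : Bool :=
  Nat.ble 351 (ixN i) ||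
    (Nat.beq (ixN (lk FiA.P 1 (16 * i) / 16)) (tb 0 (ixN i)) &&
      Nat.beq (ixN (lk FiA.P 2 (16 * i) / 16)) (tb 1 (ixN i)) &&
      Nat.beq (ixN (lk FiA.P 3 (16 * i) / 16)) (tb 2 (ixN i)) &&
      Nat.beq (ixN (lk FiA.P 4 (16 * i) / 16)) (tb 3 (ixN i)) &&
      Nat.beq (ixN (lk FiA.P 5 (16 * i) / 16)) (tb 4 (ixN i)) &&
      Nat.beq (ixN (lk FiA.P 6 (16 * i) / 16)) (tb 5 (ixN i)) &&
      Nat.beq (ixN (lk FiA.P 7 (16 * i) / 16)) (tb 6 (ixN i)) &&
      Nat.beq (ixN (lk FiA.P 8 (16 * i) / 16)) (tb 7 (ixN i)))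

set_option maxRecDepth 100000 in
theorem chkO_all : allLt (fun j => allLt (fun i =>
    Nat.ble 3510 (512 * j + i) || chkO (512 * j + i)) 512) 7 = true := by
  decide +kernel

theorem chkO_of {i : ℕ} (hi : i < 3510) : chkO i = true := by
  have h1 := allLt_spec _ 7 chkO_all (i / 512) (by omega)
  have h2 := allLt_spec _ 512 h1 (i % 512) (Nat.mod_lt _ (by norm_num))
  rw [Nat.div_add_mod, Bool.or_eq_true, Nat.ble_eq] at h2
  rcases h2 with h | h
  · omega
  · exact h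

theorem chk_orb {i : ℕ} (hi : i < 3510) (hx : ixN i < 351) {s : ℕ} (hs : s < 8) :
    ixN (lk FiA.P (s + 1) (16 * i) / 16) = tb s (ixN i) := by
  have h := chkO_of hi
  unfold chkO at h
  rw [Bool.or_eq_true, Nat.ble_eq] at h
  rcases h with h | h
  · omega
  · simp only [Bool.and_eq_true, Nat.beq_eq] at h
    obtain ⟨⟨⟨⟨⟨⟨⟨h0, h1⟩, h2⟩, h3⟩, h4⟩, h5⟩, h6⟩, h7⟩ := h
    interval_cases s
    exacts [h0, h1, h2, h3, h4, h5, h6, h7]

theorem chk_rep : ∀ p, p < 351 → ixN (rp p) = p ∧ rp p < 3510 := by decide +kernel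

set_option maxRecDepth 100000 in
theorem chk_gens : ∀ k, k < 8 → ∀ p, p < 351 → tb k p < 351 ∧ tb k (tb k p) = p := by
  decide +kernel

theorem slpBlk_all : ∀ j, j < 24 → slpBlk j = true := by
  intro j hj
  interval_cases j
  exacts [chk_slp_0, chk_slp_1, chk_slp_2, chk_slp_3, chk_slp_4, chk_slp_5, chk_slp_6, chk_slp_7,
    chk_slp_8, chk_slp_9, chk_slp_10, chk_slp_11, chk_slp_12, chk_slp_13, chk_slp_14, chk_slp_15,
    chk_slp_16, chk_slp_17, chk_slp_18, chk_slp_19, chk_slp_20, chk_slp_21, chk_slp_22, chk_slp_23]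

theorem chk_slp {k : ℕ} (h8 : 8 ≤ k) (hk : k < 1477) : slpOK tb si sj 351 k = true := by
  have h1 := slpBlk_all (k / 64) (by omega)
  unfold slpBlk at h1
  have h2 := allLt_spec _ 64 h1 (k % 64) (Nat.mod_lt _ (by norm_num))
  rw [Nat.div_add_mod] at h2
  simp only [Bool.or_eq_true, Nat.blt_eq, Nat.ble_eq] at h2
  rcases h2 with (h | h) | h
  · omega
  · omega
  · exact h

set_option maxRecDepth 100000 in
theorem chk_lv : lvlsOK tb 351 1477 [] lv = true := by decide +kernel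

theorem chk_prod : lvlsProd lv = 4585351680 := by decide +kernel

set_option maxRecDepth 100000 in
theorem chk_tr : ∀ q, q < 351 → trn q < 1477 ∧ tb (trn q) 1 = q := by decide +kernel

set_option maxRecDepth 100000 in
theorem chk_wt : ∀ q, q < 351 → q = 1 ∨ (wt q < 1477 ∧ tb (wt q) 1 = 1 ∧ tb (wt q) q ≠ q) := by
  decide +kernel

theorem hM1 : ∀ j, j < 8 → mkM (mc j) * mkM (mc j) = 1 := by decide +kernel

theorem hM2 : ∀ j, j < 8 → isoN (mc j) := by
  intro j hj
  interval_cases j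
  exacts [hM2_0, hM2_1, hM2_2, hM2_3, hM2_4, hM2_5, hM2_6, hM2_7]

set_option maxRecDepth 100000 in
theorem chk_act : ∀ j, j < 8 → ∀ p, p < 351 → actN (mc j) p = tb j p := by decide +kernel

end Cfsg.Agent.Lib.Helper86.FiO7Chk
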