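import Cfsg.Agent.Lib.Helper86.O73.Pts

/-!
# The commutator subgroup of the isometry group of `x₀² + x₁y₁ + x₂y₂ + x₃y₃` over `𝔽₃`

It lies in the kernels of the determinant and of the sign of the action on the 351 points of
norm 2, so that its order is at most `4585351680`.
-/

set_option autoImplicit false

namespace Cfsg.Agent.Lib.Helper86.O73

open Matrix

/-- code of the reflection in the vector `x₃ + y₃` of norm 1 -/
def mR : ℕ := 2477089022873148053996503041

/-- the transpositions of the reflection on the 351 points -/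
def swL : List (ℕ × ℕ) := [(2, 192), (5, 270), (6, 338), (7, 154), (9, 24), (10, 13), (14, 317), (15, 68), (16, 64), (17, 26), (19, 328), (20, 183), (21, 220), (23, 95), (25, 48), (30, 55), (32, 67), (33, 46), (34, 40), (36, 151), (39, 69), (41, 318), (43, 52), (44, 332), (47, 153), (49, 141), (50, 216), (51, 63), (54, 320), (56, 312), (57, 142), (59, 186), (60, 245), (61, 70), (65, 298), (66, 99), (71, 213), (72, 172), (75, 156), (76, 301), (78, 96), (79, 149), (80, 93), (81, 113), (82, 85), (86, 162), (87, 300), (88, 104), (91, 126), (98, 241), (101, 131), (102, 190), (105, 123), (106, 181), (108, 302), (109, 194), (110, 296), (111, 248), (114, 316), (115, 207), (117, 290), (119, 136), (122, 135), (127, 260), (128, 161), (133, 297), (139, 274), (140, 264), (143, 147), (144, 236), (145, 299), (146, 289), (148, 164), (152, 163), (157, 252), (158, 350), (165, 189), (166, 261), (167, 319), (168, 267), (170, 237), (174, 179), (176, 295), (182, 199), (188, 348), (191, 225), (193, 210), (196, 314), (198, 315), (200,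 285), (204, 258), (208, 284), (212, 230), (217, 345), (218, 255), (221, 262), (226, 331), (228, 330), (232, 329), (233, 276), (234, 256), (235, 266), (243, 343), (244, 278), (247, 268), (251, 259), (253, 277), (263, 313), (269, 337), (273, 282), (279, 339), (287, 342), (303, 306), (308, 310), (311, 326), (321, 325), (333, 336)]

def sw1 (a b y : ℕ) : ℕ := if y = a then b else if y = b then a else y

/-- apply the product of the transpositions of a list -/
def applySw : List (ℕ × ℕ) → ℕ → ℕ
  | [], x => x
  | p :: l, x => sw1 p.1 p.2 (applySw l x)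

def fin351 (a : ℕ) : Fin 351 := ⟨a % 351, Nat.mod_lt _ (by norm_num)⟩

def swF (p : ℕ × ℕ) : Equiv.Perm (Fin 351) := Equiv.swap (fin351 p.1) (fin351 p.2)

theorem eq_fin351 (x : Fin 351) (a : ℕ) (ha : a < 351) : x = fin351 a ↔ x.1 = a := by
  unfold fin351
  rw [Fin.ext_iff]
  change x.1 = a % 351 ↔ _
  rw [Nat.mod_eq_of_lt ha]

theorem swF_apply (p : ℕ × ℕ) (h1 : p.1 < 351) (h2 : p.2 < 351) (x : Fin 351) :
    ((swF p x : Fin 351) : ℕ) = sw1 p.1 p.2 x.1 := by
  unfold swF sw1
  rw [Equiv.swap_apply_def]
  by_cases e1 : x.1 = p.1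
  · rw [if_pos ((eq_fin351 _ _ h1).2 e1), if_pos e1]
    exact Nat.mod_eq_of_lt h2
  · rw [if_neg (fun h => e1 ((eq_fin351 _ _ h1).1 h)), if_neg e1]
    by_cases e2 : x.1 = p.2
    · rw [if_pos ((eq_fin351 _ _ h2).2 e2), if_pos e2]
      exact Nat.mod_eq_of_lt h1
    · rw [if_neg (fun h => e2 ((eq_fin351 _ _ h2).1 h)), if_neg e2]

theorem prod_apply (l : List (ℕ × ℕ)) (hl : ∀ p ∈ l, p.1 < 351 ∧ p.2 < 351) (i : Fin 351) :
    (((l.map swF).prod i : Fin 351) : ℕ) = applySw l i.1 := by
  induction l with
  | nil => rfl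
  | cons p l ih =>
    obtain ⟨h1, h2⟩ := hl p List.mem_cons_self
    rw [List.map_cons, List.prod_cons, Equiv.Perm.mul_apply, swF_apply p h1 h2,
      ih (fun q hq => hl q (List.mem_cons_of_mem _ hq))]
    rfl

theorem sign_prod (l : List (ℕ × ℕ)) (hl : ∀ p ∈ l, p.1 % 351 ≠ p.2 % 351) :
    Equiv.Perm.sign (l.map swF).prod = (-1) ^ l.length := by
  induction l with
  | nil => simp
  | cons p l ih =>
    have hne : fin351 p.1 ≠ fin351 p.2 := by
      intro h
      exact hl p List.mem_cons_self (congrArg Fin.val h)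
    rw [List.map_cons, List.prod_cons, map_mul, ih (fun q hq => hl q (List.mem_cons_of_mem _ hq)),
      List.length_cons, pow_succ']
    unfold swF
    rw [Equiv.Perm.sign_swap hne]

theorem hR1 : mkM mR * mkM mR = 1 := by decide +kernel

set_option maxRecDepth 100000 in
theorem hR2 : isoN mR := by decide +kernel

/-- the reflection in `x₃ + y₃` -/
def Rr : O := mkO mR hR1 hR2

set_option maxRecDepth 100000 in
theorem chkR : ∀ i, i < 351 → actN mR i = applySw swL i := by decide +kernel

theorem swL_lt : ∀ p ∈ swL, p.1 < 351 ∧ p.2 < 351 := by decide +kernel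

theorem swL_ne : ∀ p ∈ swL, p.1 % 351 ≠ p.2 % 351 := by decide +kernel

theorem swL_len : swL.length = 117 := by decide +kernel

theorem tauO_R : tauO Rr = (swL.map swF).prod := by
  apply Equiv.ext
  intro i
  apply Fin.ext
  unfold Rr
  rw [tauO_mkO, prod_apply swL swL_lt i]
  exact chkR i.1 i.2

theorem sign_R : Equiv.Perm.sign (tauO Rr) = -1 := by
  rw [tauO_R, sign_prod swL swL_ne, swL_len]
  exact Odd.neg_one_pow ⟨58, by norm_num⟩

theorem Qt_neg (q : T7) : Qt (-q) = Qt q := by
  simp only [Qt, Prod.fst_neg, Prod.snd_neg]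
  ring

/-- the scalar `-1` -/
def negO : O := ⟨-1, fun u _ => by
  change Qf ((-1 : Matrix I7 I7 K) *ᵥ u) = Qf u
  rw [Matrix.neg_mulVec, Matrix.one_mulVec, Q_eq, vt_neg, Qt_neg, Q_eq]⟩

theorem negO_smul (v : V) : negO • v = -v := by
  change (-1 : Matrix I7 I7 K) *ᵥ v = -v
  rw [Matrix.neg_mulVec, Matrix.one_mulVec]

theorem tauO_negO : tauO negO = 1 := by
  apply Equiv.ext
  intro i
  apply Fin.ext
  rw [tauO_apply, negO_smul, pt_neg, pt_vec i.2]
  rfl

/-- the determinant on the isometry group -/
noncomputable def detO : O →* Kˣ := Matrix.GeneralLinearGroup.det.comp O.subtype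

/-- the sign of the action on the 351 points -/
noncomputable def sgnO : O →* ℤˣ := Equiv.Perm.sign.comp tauO

theorem detO_eq (A : O) : detO A = Matrix.GeneralLinearGroup.det A.1 := rfl

theorem detO_val (A : O) : ((detO A : Kˣ) : K) = Matrix.det (A.1.1 : Matrix I7 I7 K) := by
  rw [detO_eq]
  exact Matrix.GeneralLinearGroup.val_det_apply A.1

theorem negO_val : (negO.1.1 : Matrix I7 I7 K) = -1 := rfl

theorem detO_negO : detO negO ≠ 1 := by
  intro h
  have h1 : ((detO negO : Kˣ) : K) = 1 := by rw [h]; rfl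
  rw [detO_val, negO_val, Matrix.det_neg, Matrix.det_one] at h1
  have h2 : Fintype.card I7 = 7 := by decide
  rw [h2] at h1
  revert h1
  decide

theorem units_mul : ∀ a b : Kˣ, a ≠ 1 → b ≠ 1 → a * b = 1 := by decide

theorem two_mul_card_ker_le {G A : Type*} [Group G] [Group A] [Finite G] (f : G →* A) (x : G)
    (hx : f x ≠ 1) : 2 * Nat.card f.ker ≤ Nat.card G := by
  have h1 := Subgroup.card_mul_index f.ker
  have h2 : f.ker.index ≠ 1 := by
    intro h
    have h' := Subgroup.index_eq_one.1 h
    exact hx (MonoidHom.mem_ker.1 (h' ▸ Subgroup.mem_top x))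
  have h3 : f.ker.index ≠ 0 := Subgroup.index_ne_zero_of_finite
  have h4 : 2 ≤ f.ker.index := by omega
  calc 2 * Nat.card f.ker ≤ f.ker.index * Nat.card f.ker := Nat.mul_le_mul_right _ h4
    _ = Nat.card G := by rw [Nat.mul_comm]; exact h1

theorem exists_odd : ∃ y : O, detO y = 1 ∧ sgnO y ≠ 1 := by
  have hs : sgnO Rr ≠ 1 := by
    change Equiv.Perm.sign (tauO Rr) ≠ 1
    rw [sign_R]
    decide
  by_cases hd : detO Rr = 1
  · exact ⟨Rr, hd, hs⟩
  · refine ⟨negO * Rr, ?_, ?_⟩
    · rw [map_mul]
      exact units_mul _ _ detO_negO hd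
    · change Equiv.Perm.sign (tauO (negO * Rr)) ≠ 1
      rw [map_mul, tauO_negO, one_mul, sign_R]
      decide

/-- the order of the commutator subgroup of the isometry group is at most `4585351680` -/
theorem card_comm_le : Nat.card (commutator O) ≤ 4585351680 := by
  have h1 := two_mul_card_ker_le detO negO detO_negO
  obtain ⟨y, hy1, hy2⟩ := exists_odd
  have h2 := two_mul_card_ker_le (sgnO.comp detO.ker.subtype) ⟨y, MonoidHom.mem_ker.2 hy1⟩ hy2
  have hc1 : commutator O ≤ detO.ker := Abelianization.commutator_subset_ker detO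
  have hc2 : commutator O ≤ sgnO.ker := Abelianization.commutator_subset_ker sgnO
  let f : commutator O → (sgnO.comp detO.ker.subtype).ker := fun x =>
    ⟨⟨x.1, hc1 x.2⟩, MonoidHom.mem_ker.2 (MonoidHom.mem_ker.1 (hc2 x.2))⟩
  have hf : Function.Injective f := by
    intro a b hab
    apply Subtype.ext
    exact congrArg (fun z : (sgnO.comp detO.ker.subtype).ker => ((z : detO.ker) : O)) hab
  have h3 := Nat.card_le_card_of_injective f hf
  have h4 := card_O_le
  omega

end Cfsg.Agent.Lib.Helper86.O73
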