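import Cfsg.Agent.Lib.Helper29.FiMain
import Cfsg.Agent.Lib.Helper86.O73.FiChk
import Cfsg.Agent.Lib.Helper86.O73.Omega

/-!
# The subgroup `⟨b, …, i⟩` of the presented Fischer group `Fi₂₂` is `Ω₇(3)`

The subgroup `H = ⟨b, …, i⟩` has index 14080, hence order `4585351680`.  It acts on an orbit of
length 351 among the 3510 points of the representation of `Fi₂₂` on the cosets of the centraliser
of `a`; a stabiliser chain shows that this action is faithful.  The generators act as the negatives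
of the reflections in eight vectors of norm 2 of the quadratic form `x₀² + x₁y₁ + x₂y₂ + x₃y₃`
over `𝔽₃`, on the 351 points of norm 2.  As `H` is perfect, its image lies in the image of the
commutator subgroup of the isometry group, which has at most `4585351680` elements.  Finally the
centre of this image is trivial.
-/

set_option autoImplicit false

namespace Cfsg.Agent.Lib.Helper86.FiO7

open Cfsg.Agent.Lib.Helper86.FiO7Data Cfsg.Agent.Lib.Helper86.FiO7Chk
open Cfsg.Agent.Lib.Helper86.PermChain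
open Cfsg.Agent.Lib.Helper29 Cfsg.Agent.Lib.Helper29.TcPerm Cfsg.Agent.Lib.Helper29.TcCox
open Cfsg.Agent.Lib.Helper29.OrdBasic Cfsg.Agent.Lib.Helper29.OrdCox
open Cfsg.Agent.Lib.Helper29.OrdQuot Cfsg.Spor

local notation "LW" => lw Fi22.edges Fi22.extra

/-- the permutation representation of `Fi₂₂` on 3510 points -/
noncomputable abbrev φ : Fi22 →* Equiv.Perm ℕ := phi FiA.ok

/-- the subgroup `⟨b, …, i⟩` -/
abbrev HH : Subgroup Fi22 :=
  Hsub Fi22.edges Fi22.extra Cfsg.Agent.Lib.Helper29.S1685.hWords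

/-- the generators `b, …, i` -/
def gx : ℕ → Fi22.Gen
  | 0 => .b
  | 1 => .c
  | 2 => .d
  | 3 => .e
  | 4 => .f
  | 5 => .g
  | 6 => .h
  | _ => .i

/-- the generator words -/
def gw (s : ℕ) : List (Fi22.Gen × Bool) := [(gx s, true)]

theorem gw_mem : ∀ s, s < 8 → gw s ∈ Cfsg.Agent.Lib.Helper29.S1685.hWords := by decide

theorem gw_cols : ∀ s, s < 8 → (gw s).map FiA.colOf = [s + 1] := by decide

theorem mem_gw : ∀ w ∈ Cfsg.Agent.Lib.Helper29.S1685.hWords, ∃ s, s < 8 ∧ w = gw s := by decide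

theorem lw_mem_HH {s : ℕ} (hs : s < 8) : LW (gw s) ∈ HH :=
  Subgroup.subset_closure ⟨gw s, gw_mem s hs, rfl⟩

theorem gsq (s : ℕ) : LW (gw s) * LW (gw s) = 1 :=
  node_sq Fi22.edges Fi22.extra (FiMain.mem_nodes (gx s))

/-- the points of the orbit of length 351 -/
def Orb : Set ℕ := {q | ValidL FiA.P q ∧ ixN (q / 16) < 351}

theorem gen_act {s : ℕ} (hs : s < 8) {q : ℕ} (hq : q ∈ Orb) :
    φ (LW (gw s)) q ∈ Orb ∧ ixN (φ (LW (gw s)) q / 16) = tb s (ixN (q / 16)) := by
  obtain ⟨hv, hx⟩ := hq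
  have hv' := (validL_iff _ _).1 hv
  have h1 : q % 16 = 0 := hv'.1
  have h2 : q < 56160 := hv'.2
  obtain ⟨i, rfl⟩ : ∃ i, q = 16 * i := ⟨q / 16, by omega⟩
  have hi : i < 3510 := by omega
  have e16 : 16 * i / 16 = i := Nat.mul_div_cancel_left _ (by norm_num)
  rw [e16] at hx ⊢
  have e : φ (LW (gw s)) (16 * i) = lk FiA.P (s + 1) (16 * i) := by
    rw [phi_lw_valid FiA.ok (gw s) _ hv, gw_cols s hs]
    rfl
  have c := chk_orb hi hx hs
  refine ⟨⟨phi_valid FiA.ok _ _ hv, ?_⟩, ?_⟩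
  · rw [e, c]
    exact (chk_gens s hs _ hx).1
  · rw [e, c]

theorem Orb_inv' {h : Fi22} (hh : h ∈ HH) : ∀ q ∈ Orb, φ h q ∈ Orb ∧ φ h⁻¹ q ∈ Orb := by
  have hh' : h ∈ Subgroup.closure {g | ∃ w ∈ Cfsg.Agent.Lib.Helper29.S1685.hWords, LW w = g} := hh
  clear hh
  induction hh' using Subgroup.closure_induction with
  | mem x hx =>
    obtain ⟨w, hw, rfl⟩ := hx
    obtain ⟨s, hs, rfl⟩ := mem_gw w hw
    intro q hq
    have hinv : (LW (gw s))⁻¹ = LW (gw s) := inv_eq_of_mul_eq_one_left (gsq s)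
    rw [hinv]
    exact ⟨(gen_act hs hq).1, (gen_act hs hq).1⟩
  | one =>
    intro q hq
    rw [inv_one, map_one]
    exact ⟨hq, hq⟩
  | mul x y _ _ ihx ihy =>
    intro q hq
    rw [mul_inv_rev, map_mul, map_mul, Equiv.Perm.mul_apply, Equiv.Perm.mul_apply]
    exact ⟨(ihx _ (ihy q hq).1).1, (ihy _ (ihx q hq).2).2⟩
  | inv x _ ih =>
    intro q hq
    rw [inv_inv]
    exact ⟨(ih q hq).2, (ih q hq).1⟩

theorem Orb_inv {h : Fi22} (hh : h ∈ HH) {q : ℕ} (hq : q ∈ Orb) : φ h q ∈ Orb :=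
  (Orb_inv' hh q hq).1

/-- the index of a point in the orbit -/
noncomputable def bk (q : ℕ) : Fin 351 := ⟨ixN (q / 16) % 351, Nat.mod_lt _ (by norm_num)⟩

/-- `g` acts on the orbit by `π` -/
def Spec (g : Fi22) (π : Equiv.Perm (Fin 351)) : Prop := ∀ q ∈ Orb, bk (φ g q) = π (bk q)

theorem bk_surj (p : Fin 351) : ∃ q ∈ Orb, bk q = p := by
  obtain ⟨h1, h2⟩ := chk_rep p.1 p.2
  have e16 : 16 * rp p.1 / 16 = rp p.1 := Nat.mul_div_cancel_left _ (by norm_num)
  refine ⟨16 * rp p.1, ⟨(validL_iff _ _).2 ⟨?_, ?_⟩, ?_⟩, ?_⟩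
  · exact Nat.mul_mod_right 16 _
  · change 16 * rp p.1 < 56160
    omega
  · rw [e16, h1]
    exact p.2
  · apply Fin.ext
    change ixN (16 * rp p.1 / 16) % 351 = p.1
    rw [e16, h1, Nat.mod_eq_of_lt p.2]

theorem spec_unique {g : Fi22} {π π' : Equiv.Perm (Fin 351)} (h : Spec g π) (h' : Spec g π') :
    π = π' := by
  apply Equiv.ext
  intro p
  obtain ⟨q, hq, rfl⟩ := bk_surj p
  rw [← h q hq, ← h' q hq]

theorem spec_one : Spec 1 1 := fun q _ => by rw [map_one]; rfl

theorem spec_mul {g₁ g₂ : Fi22} {π₁ π₂ : Equiv.Perm (Fin 351)} (h₁ : Spec g₁ π₁)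
    (h₂ : Spec g₂ π₂) (hg₂ : g₂ ∈ HH) : Spec (g₁ * g₂) (π₁ * π₂) := by
  intro q hq
  rw [map_mul, Equiv.Perm.mul_apply, h₁ _ (Orb_inv hg₂ hq), h₂ q hq, Equiv.Perm.mul_apply]

theorem spec_inv {g : Fi22} {π : Equiv.Perm (Fin 351)} (h : Spec g π) (hg : g ∈ HH) :
    Spec g⁻¹ π⁻¹ := by
  intro q hq
  have hq' := Orb_inv (HH.inv_mem hg) hq
  have := h _ hq'
  rw [← Equiv.Perm.mul_apply, ← map_mul, mul_inv_cancel, map_one, Equiv.Perm.one_apply] at this
  rw [this]
  exact (π.symm_apply_apply _).symm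

/-- the permutation of a generator on the orbit -/
noncomputable def gperm (s : ℕ) (hs : s < 8) : Equiv.Perm (Fin 351) where
  toFun p := ⟨tb s p.1 % 351, Nat.mod_lt _ (by norm_num)⟩
  invFun p := ⟨tb s p.1 % 351, Nat.mod_lt _ (by norm_num)⟩
  left_inv p := by
    obtain ⟨h1, h2⟩ := chk_gens s hs p.1 p.2
    apply Fin.ext
    change tb s (tb s p.1 % 351) % 351 = p.1
    rw [Nat.mod_eq_of_lt h1, h2, Nat.mod_eq_of_lt p.2]
  right_inv p := by
    obtain ⟨h1, h2⟩ := chk_gens s hs p.1 p.2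
    apply Fin.ext
    change tb s (tb s p.1 % 351) % 351 = p.1
    rw [Nat.mod_eq_of_lt h1, h2, Nat.mod_eq_of_lt p.2]

theorem gperm_apply (s : ℕ) (hs : s < 8) (p : Fin 351) :
    ((gperm s hs p : Fin 351) : ℕ) = tb s p.1 :=
  Nat.mod_eq_of_lt (chk_gens s hs p.1 p.2).1

theorem spec_gen (s : ℕ) (hs : s < 8) : Spec (LW (gw s)) (gperm s hs) := by
  intro q hq
  obtain ⟨h1, h2⟩ := gen_act hs hq
  apply Fin.ext
  rw [gperm_apply]
  change ixN (φ (LW (gw s)) q / 16) % 351 = tb s (ixN (q / 16) % 351)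
  rw [h2, Nat.mod_eq_of_lt hq.2]
  exact Nat.mod_eq_of_lt (chk_gens s hs _ hq.2).1

/-- the elements of `H` acting on the orbit -/
def TT : Subgroup Fi22 where
  carrier := {g | g ∈ HH ∧ ∃ π, Spec g π}
  one_mem' := ⟨HH.one_mem, 1, spec_one⟩
  mul_mem' := by
    rintro a b ⟨ha, π₁, h₁⟩ ⟨hb, π₂, h₂⟩
    exact ⟨HH.mul_mem ha hb, π₁ * π₂, spec_mul h₁ h₂ hb⟩
  inv_mem' := by
    rintro a ⟨ha, π, h⟩
    exact ⟨HH.inv_mem ha, π⁻¹, spec_inv h ha⟩

theorem HH_le_TT : HH ≤ TT := by
  change Subgroup.closure _ ≤ _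
  rw [Subgroup.closure_le]
  rintro _ ⟨w, hw, rfl⟩
  obtain ⟨s, hs, rfl⟩ := mem_gw w hw
  exact ⟨lw_mem_HH hs, gperm s hs, spec_gen s hs⟩

theorem ex_spec (h : HH) : ∃ π, Spec h.1 π := (HH_le_TT h.2).2

/-- the action of `H` on the 351 points -/
noncomputable def sig : HH →* Equiv.Perm (Fin 351) :=
  MonoidHom.mk' (fun h => Classical.choose (ex_spec h)) (fun a b =>
    spec_unique (Classical.choose_spec (ex_spec (a * b)))
      (spec_mul (Classical.choose_spec (ex_spec a)) (Classical.choose_spec (ex_spec b)) b.2))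

theorem sig_spec (h : HH) : Spec h.1 (sig h) := Classical.choose_spec (ex_spec h)

/-- the generators as elements of `H` -/
noncomputable def xg (s : ℕ) (hs : s < 8) : HH := ⟨LW (gw s), lw_mem_HH hs⟩

theorem sig_xg (s : ℕ) (hs : s < 8) : sig (xg s hs) = gperm s hs :=
  spec_unique (sig_spec _) (spec_gen s hs)

theorem good_base (k : ℕ) (hk : k < 8) : Good sig.range tb k :=
  ⟨sig (xg k hk), ⟨_, rfl⟩, fun p => by rw [sig_xg]; exact gperm_apply k hk p⟩

theorem good_nodes : ∀ k, k < 1477 → Good sig.range tb k :=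
  good_all si sj 8 1477 good_base (fun _ h1 h2 => chk_slp h1 h2)

theorem card_range_ge : 4585351680 ≤ Nat.card sig.range := by
  rw [← chk_prod]
  exact card_ge sig.range tb si sj 8 1477 good_base (fun _ h1 h2 => chk_slp h1 h2) lv chk_lv

theorem card_HH_le : Nat.card HH ≤ 4585351680 := by
  have h1 := Subgroup.card_mul_index HH
  have hidx : HH.index = 14080 := (cox_index_stab Cfsg.Agent.S1685.ok).1
  rw [hidx, FiMain.card_inj.1] at h1
  omega

theorem sig_facts : Nat.card HH = 4585351680 ∧ Function.Injective sig :=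
  card_eq_and_injective sig 4585351680 card_HH_le card_range_ge

/-! ### `H` is perfect -/

theorem xg_sq (s : ℕ) (hs : s < 8) : xg s hs * xg s hs = 1 := Subtype.ext (gsq s)

theorem xg_pair (s t : ℕ) (hs : s < 8) (ht : t < 8)
    (hlab : coxLabel Fi22.edges (gx s) (gx t) = 3) : (xg s hs * xg t ht) ^ 3 = 1 := by
  apply Subtype.ext
  rw [Subgroup.coe_pow, Subgroup.coe_mul, Subgroup.coe_one]
  have h := pair_pow (extra := Fi22.extra) (FiMain.mem_nodes (gx s)) (FiMain.mem_nodes (gx t))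
  rw [hlab] at h
  exact h

/-- in a commutative group, two involutions whose product has order dividing 3 are equal -/
theorem ab_eq {A : Type*} [CommGroup A] {x y : A} (hx : x * x = 1) (hy : y * y = 1)
    (h : (x * y) ^ 3 = 1) : x = y := by
  rw [mul_pow] at h
  have ex : x ^ 3 = x := by rw [pow_succ, pow_two, hx, one_mul]
  have ey : y ^ 3 = y := by rw [pow_succ, pow_two, hy, one_mul]
  rw [ex, ey] at h
  exact (mul_eq_one_iff_eq_inv.1 h).trans (inv_eq_of_mul_eq_one_left hy)

theorem edge_eq {A : Type*} [CommGroup A] (π : HH →* A) (s t : ℕ) (hs : s < 8) (ht : t < 8)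
    (hlab : coxLabel Fi22.edges (gx s) (gx t) = 3) : π (xg s hs) = π (xg t ht) := by
  apply ab_eq
  · rw [← map_mul, xg_sq, map_one]
  · rw [← map_mul, xg_sq, map_one]
  · rw [← map_mul, ← map_pow, xg_pair s t hs ht hlab, map_one]

theorem gx_surj (x : Fi22.Gen) (hx : x ≠ Fi22.Gen.a) : ∃ s, ∃ _ : s < 8, gx s = x := by
  cases x
  · exact absurd rfl hx
  · exact ⟨0, by norm_num, rfl⟩
  · exact ⟨1, by norm_num, rfl⟩
  · exact ⟨2, by norm_num, rfl⟩
  · exact ⟨3, by norm_num, rfl⟩
  · exact ⟨4, by norm_num, rfl⟩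
  · exact ⟨5, by norm_num, rfl⟩
  · exact ⟨6, by norm_num, rfl⟩
  · exact ⟨7, by norm_num, rfl⟩

/-- if all generators have the same image `z` in an abelian group, a word in `b, …, i` is sent to
a power of `z` -/
theorem ab_word {A : Type*} [CommGroup A] (π : HH →* A) (z : A)
    (hall : ∀ s (hs : s < 8), π (xg s hs) = z) :
    ∀ w : List (Fi22.Gen × Bool), (∀ l ∈ w, l.1 ≠ Fi22.Gen.a) →
      ∃ hm : LW w ∈ HH, π ⟨LW w, hm⟩ = z ^ w.length := by
  intro w
  induction w with
  | nil =>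
    intro _
    have h1 : LW ([] : List (Fi22.Gen × Bool)) = 1 := lw_nil _ _
    have hm : LW ([] : List (Fi22.Gen × Bool)) ∈ HH := by
      rw [h1]
      exact HH.one_mem
    refine ⟨hm, ?_⟩
    have h2 : (⟨LW ([] : List (Fi22.Gen × Bool)), hm⟩ : HH) = 1 := Subtype.ext h1
    rw [h2, map_one, List.length_nil, pow_zero]
  | cons l w ih =>
    intro hl
    obtain ⟨hm, hπ⟩ := ih (fun l' hl' => hl l' (List.mem_cons_of_mem _ hl'))
    obtain ⟨x, b⟩ := l
    have hx : x ≠ Fi22.Gen.a := hl (x, b) List.mem_cons_self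
    obtain ⟨s, hs, rfl⟩ := gx_surj x hx
    have h1 : LW [(gx s, b)] = LW (gw s) := by
      cases b
      · exact node_inv Fi22.edges Fi22.extra (FiMain.mem_nodes _)
      · rfl
    have h2 : LW ((gx s, b) :: w) = (xg s hs : Fi22) * LW w := by
      rw [lw_cons, h1]
      rfl
    have hm' : LW ((gx s, b) :: w) ∈ HH := by
      rw [h2]
      exact HH.mul_mem (xg s hs).2 hm
    refine ⟨hm', ?_⟩
    have h3 : (⟨LW ((gx s, b) :: w), hm'⟩ : HH) = xg s hs * ⟨LW w, hm⟩ := Subtype.ext h2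
    rw [h3, map_mul, hall, hπ, List.length_cons, pow_succ']

/-- the relator `(b c d e f g h)^9` as a word -/
def w9 : List (Fi22.Gen × Bool) := FiA.extraWords.getD 2 []

theorem w9_one : LW w9 = 1 := by
  apply lw_of_mem_rels
  right
  change FreeGroup.mk _ ∈ Fi22.extra
  rw [FiA.ok.hextra]
  apply List.mem_map_of_mem
  decide

theorem w9_len : w9.length = 63 := by decide

theorem w9_ok : ∀ l ∈ w9, l.1 ≠ Fi22.Gen.a := by decide

theorem gen_top : Subgroup.closure {x : HH | ∃ s, ∃ hs : s < 8, xg s hs = x} = ⊤ := by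
  rw [eq_top_iff, ← Subgroup.closure_closure_coe_preimage]
  apply Subgroup.closure_mono
  rintro ⟨x, hx⟩ ⟨w, hw, hwx⟩
  obtain ⟨s, hs, rfl⟩ := mem_gw w hw
  exact ⟨s, hs, Subtype.ext hwx⟩

theorem HH_perfect : commutator HH = ⊤ := by
  have h01 := edge_eq (Abelianization.of : HH →* Abelianization HH) 0 1 (by norm_num)
    (by norm_num) (by decide)
  have h12 := edge_eq (Abelianization.of : HH →* Abelianization HH) 1 2 (by norm_num)
    (by norm_num) (by decide)
  have h23 := edge_eq (Abelianization.of : HH →* Abelianization HH) 2 3 (by norm_num)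
    (by norm_num) (by decide)
  have h26 := edge_eq (Abelianization.of : HH →* Abelianization HH) 2 6 (by norm_num)
    (by norm_num) (by decide)
  have h34 := edge_eq (Abelianization.of : HH →* Abelianization HH) 3 4 (by norm_num)
    (by norm_num) (by decide)
  have h45 := edge_eq (Abelianization.of : HH →* Abelianization HH) 4 5 (by norm_num)
    (by norm_num) (by decide)
  have h67 := edge_eq (Abelianization.of : HH →* Abelianization HH) 6 7 (by norm_num)
    (by norm_num) (by decide)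
  have hall : ∀ s (hs : s < 8), (Abelianization.of (xg s hs) : Abelianization HH) =
      Abelianization.of (xg 0 (by norm_num)) := by
    intro s hs
    match s, hs with
    | 0, _ => rfl
    | 1, _ => exact h01.symm
    | 2, _ => exact (h01.trans h12).symm
    | 3, _ => exact (h01.trans (h12.trans h23)).symm
    | 4, _ => exact (h01.trans (h12.trans (h23.trans h34))).symm
    | 5, _ => exact (h01.trans (h12.trans (h23.trans (h34.trans h45)))).symm
    | 6, _ => exact (h01.trans (h12.trans h26)).symm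
    | 7, _ => exact (h01.trans (h12.trans (h26.trans h67))).symm
    | (n + 8), h => exact absurd h (by omega)
  have hz : (Abelianization.of (xg 0 (by norm_num)) : Abelianization HH) *
      Abelianization.of (xg 0 (by norm_num)) = 1 := by
    rw [← map_mul, xg_sq, map_one]
  obtain ⟨hm, hπ⟩ := ab_word (Abelianization.of : HH →* Abelianization HH) _ hall w9 w9_ok
  have h1 : (⟨LW w9, hm⟩ : HH) = 1 := Subtype.ext w9_one
  rw [h1, map_one, w9_len] at hπ
  have hz1 : (Abelianization.of (xg 0 (by norm_num)) : Abelianization HH) = 1 := by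
    have e : (Abelianization.of (xg 0 (by norm_num)) : Abelianization HH) ^ 63 =
        Abelianization.of (xg 0 (by norm_num)) := by
      rw [show 63 = 2 * 31 + 1 from rfl, pow_succ, pow_mul, pow_two, hz, one_pow, one_mul]
    rw [← e]
    exact hπ.symm
  rw [eq_top_iff, ← gen_top, Subgroup.closure_le]
  rintro _ ⟨s, hs, rfl⟩
  rw [SetLike.mem_coe, ← Abelianization.ker_of, MonoidHom.mem_ker]
  exact (hall s hs).trans hz1

/-! ### comparison with the orthogonal group -/

/-- the isometries of the generators -/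
def gO (s : ℕ) (hs : s < 8) : O73.O := O73.mkO (mc s) (hM1 s hs) (hM2 s hs)

theorem sig_xg_tau (s : ℕ) (hs : s < 8) : sig (xg s hs) = O73.tauO (gO s hs) := by
  apply Equiv.ext
  intro p
  apply Fin.ext
  rw [sig_xg, gperm_apply, gO, O73.tauO_mkO, chk_act s hs p.1 p.2]

theorem range_le : sig.range ≤ O73.tauO.range := by
  rw [MonoidHom.range_eq_map, ← gen_top, MonoidHom.map_closure, Subgroup.closure_le]
  rintro _ ⟨_, ⟨s, hs, rfl⟩, rfl⟩
  exact ⟨gO s hs, (sig_xg_tau s hs).symm⟩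

theorem range_comm : sig.range = ⁅sig.range, sig.range⁆ := by
  have h := Subgroup.map_commutator (⊤ : Subgroup HH) ⊤ sig
  rw [← _root_.commutator_def, HH_perfect, ← MonoidHom.range_eq_map] at h
  exact h

theorem range_le_comm : sig.range ≤ (commutator O73.O).map O73.tauO := by
  calc sig.range = ⁅sig.range, sig.range⁆ := range_comm
    _ ≤ ⁅O73.tauO.range, O73.tauO.range⁆ := Subgroup.commutator_mono range_le range_le
    _ = (commutator O73.O).map O73.tauO := by
        rw [_root_.commutator_def, Subgroup.map_commutator, ← MonoidHom.range_eq_map]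

/-- the action of the commutator subgroup of the isometry group on the 351 points -/
noncomputable def tauΩ : ↥(commutator O73.O) →* Equiv.Perm (Fin 351) :=
  O73.tauO.comp (commutator O73.O).subtype

theorem tauΩ_range : tauΩ.range = (commutator O73.O).map O73.tauO := by
  unfold tauΩ
  rw [← MonoidHom.map_range, Subgroup.range_subtype]

theorem omega_facts : sig.range = tauΩ.range ∧ Function.Injective tauΩ := by
  obtain ⟨hcard, hinj⟩ := sig_facts
  have h1 : Nat.card sig.range = 4585351680 := by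
    rw [← hcard]
    exact (Nat.card_congr (MonoidHom.ofInjective hinj).toEquiv).symm
  have hle : sig.range ≤ tauΩ.range := by
    rw [tauΩ_range]
    exact range_le_comm
  have h2 : Nat.card sig.range ≤ Nat.card tauΩ.range := Subgroup.card_le_of_le hle
  have h3 : Nat.card tauΩ.range ≤ Nat.card ↥(commutator O73.O) := card_range_le tauΩ
  have h4 := O73.card_comm_le
  refine ⟨Subgroup.eq_of_le_of_card_ge hle (by omega), ?_⟩
  exact (card_eq_and_injective tauΩ 4585351680 h4 (by omega)).2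

/-! ### the centre -/

/-- a transitive permutation group in which the stabiliser of a point fixes no other point has a
trivial centraliser in the symmetric group -/
theorem center_bot_of_perm {n : ℕ} (R : Subgroup (Equiv.Perm (Fin n))) (b : Fin n)
    (htr : ∀ q : Fin n, ∃ x ∈ R, x b = q)
    (hfix : ∀ q : Fin n, q ≠ b → ∃ y ∈ R, y b = b ∧ y q ≠ q)
    (z : Equiv.Perm (Fin n)) (hc : ∀ g ∈ R, g * z = z * g) : z = 1 := by
  have hzb : z b = b := by
    by_contra hne
    obtain ⟨y, hy, hyb, hyq⟩ := hfix (z b) hne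
    have h := congrArg (fun f : Equiv.Perm (Fin n) => f b) (hc y hy)
    simp only [Equiv.Perm.mul_apply] at h
    rw [hyb] at h
    exact hyq h
  apply Equiv.ext
  intro q
  obtain ⟨x, hx, rfl⟩ := htr q
  have h := congrArg (fun f : Equiv.Perm (Fin n) => f b) (hc x hx)
  simp only [Equiv.Perm.mul_apply] at h
  rw [hzb] at h
  rw [Equiv.Perm.one_apply]
  exact h.symm

theorem range_tr (q : Fin 351) : ∃ x ∈ sig.range, x ⟨1, by norm_num⟩ = q := by
  obtain ⟨h1, h2⟩ := chk_tr q.1 q.2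
  obtain ⟨x, hx, hx'⟩ := good_nodes _ h1
  exact ⟨x, hx, Fin.ext ((hx' _).trans h2)⟩

theorem range_fix (q : Fin 351) (hq : q ≠ ⟨1, by norm_num⟩) :
    ∃ y ∈ sig.range, y ⟨1, by norm_num⟩ = ⟨1, by norm_num⟩ ∧ y q ≠ q := by
  rcases chk_wt q.1 q.2 with h | ⟨h1, h2, h3⟩
  · exact absurd (Fin.ext h) hq
  · obtain ⟨y, hy, hy'⟩ := good_nodes _ h1
    refine ⟨y, hy, Fin.ext ((hy' _).trans h2), fun h => h3 ?_⟩
    rw [← hy' q, h]

theorem center_bot : Subgroup.center (↥(commutator O73.O)) = ⊥ := by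
  obtain ⟨hrange, hinj⟩ := omega_facts
  rw [eq_bot_iff]
  intro z hz
  rw [Subgroup.mem_bot]
  apply hinj
  rw [map_one]
  apply center_bot_of_perm sig.range ⟨1, by norm_num⟩ range_tr range_fix
  intro g hg
  rw [hrange] at hg
  obtain ⟨g', rfl⟩ := hg
  rw [← map_mul, ← map_mul, Subgroup.mem_center_iff.1 hz g']

/-- **Main theorem**: the subgroup `⟨b, …, i⟩` of the presented `Fi₂₂` is isomorphic to
`PΩ₇(3)`. -/
theorem main : Nonempty (HH ≃* Cfsg.POmega (ZMod 3) (Cfsg.quadFormOdd 3 (ZMod 3))) := by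
  obtain ⟨hrange, hinjΩ⟩ := omega_facts
  obtain ⟨-, hinj⟩ := sig_facts
  have e1 : HH ≃* sig.range := MonoidHom.ofInjective hinj
  have e2 : ↥(commutator O73.O) ≃* tauΩ.range := MonoidHom.ofInjective hinjΩ
  have e3 : sig.range ≃* tauΩ.range := MulEquiv.subgroupCongr hrange
  have e4 : (↥(commutator O73.O)) ⧸ Subgroup.center (↥(commutator O73.O)) ≃*
      ↥(commutator O73.O) :=
    (QuotientGroup.quotientMulEquivOfEq center_bot).trans QuotientGroup.quotientBot
  exact ⟨((e1.trans e3).trans e2.symm).trans e4.symm⟩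

/-- the statement for the subgroup as a closure of words of the free group -/
theorem main' : Nonempty ((((Subgroup.closure ({Fi22.b, Fi22.c, Fi22.d, Fi22.e, Fi22.f, Fi22.g,
    Fi22.h, Fi22.i} : Set (FreeGroup Fi22.Gen))).map
    (PresentedGroup.mk (coxRelators Fi22.edges ∪ {r | r ∈ Fi22.extra})))) ≃*
    Cfsg.POmega (ZMod 3) (Cfsg.quadFormOdd 3 (ZMod 3))) := by
  rw [H_eq Cfsg.Agent.S1685.ok]
  exact main

end Cfsg.Agent.Lib.Helper86.FiO7
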