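import Cfsg.Agent.Lib.Helper86.O73.FiData
import Cfsg.Agent.Lib.Helper86.Sp4.PermChain

/-!
# The block check of the straight-line program of the nodes for `⟨b, …, i⟩ ≤ Fi₂₂`
-/

set_option autoImplicit false

namespace Cfsg.Agent.Lib.Helper86.FiO7Chk

open Cfsg.Agent.Lib.Helper86.FiO7Data Cfsg.Agent.Lib.Helper86.PermChain

/-- straight-line program check for the nodes `64 * j + i`, `i < 64` -/
noncomputable def slpBlk (j : ℕ) : Bool :=
  allLt (fun i => Nat.blt (64 * j + i) 8 || Nat.ble 1477 (64 * j + i) ||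
    slpOK tb si sj 351 (64 * j + i)) 64

end Cfsg.Agent.Lib.Helper86.FiO7Chk
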