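import Cfsg.Prelude.Def_Classical
import Cfsg.Agent.Lib.Helper86.Sp4.Sp4Card

/-!
# The isometry group of the quadratic form `x₀² + x₁y₁ + x₂y₂ + x₃y₃` over `𝔽₃`

An upper bound for its order by the orbit–stabiliser theorem along an orthogonal basis.
-/

set_option autoImplicit false

namespace Cfsg.Agent.Lib.Helper86.O73

open Matrix

abbrev K := ZMod 3
abbrev I7 := Unit ⊕ (Fin 3 ⊕ Fin 3)
abbrev V := I7 → K
abbrev T7 := K × K × K × K × K × K × K

/-- the quadratic form -/
abbrev Qf : V → K := Cfsg.quadFormOdd 3 (ZMod 3)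

/-- the isometry group -/
abbrev O : Subgroup (Matrix.GeneralLinearGroup I7 K) := Cfsg.isometryGroup K Qf

/-- the vector with given coordinates -/
def tv (q : T7) : V := fun i =>
  match i with
  | .inl _ => q.1
  | .inr (.inl j) => ![q.2.1, q.2.2.1, q.2.2.2.1] j
  | .inr (.inr j) => ![q.2.2.2.2.1, q.2.2.2.2.2.1, q.2.2.2.2.2.2] j

/-- the coordinates of a vector -/
def vt (v : V) : T7 :=
  (v (.inl ()), v (.inr (.inl 0)), v (.inr (.inl 1)), v (.inr (.inl 2)),
    v (.inr (.inr 0)), v (.inr (.inr 1)), v (.inr (.inr 2)))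

theorem tv_vt (v : V) : tv (vt v) = v := by
  funext i
  rcases i with ⟨⟩ | j | j
  · rfl
  · fin_cases j <;> rfl
  · fin_cases j <;> rfl

theorem vt_tv (q : T7) : vt (tv q) = q := rfl

theorem vt_add (u v : V) : vt (u + v) = vt u + vt v := rfl

theorem vt_neg (u : V) : vt (-u) = -vt u := rfl

/-- the quadratic form in coordinates -/
def Qt (q : T7) : K :=
  q.1 ^ 2 + q.2.1 * q.2.2.2.2.1 + q.2.2.1 * q.2.2.2.2.2.1 + q.2.2.2.1 * q.2.2.2.2.2.2

theorem Q_eq (v : V) : Qf v = Qt (vt v) := by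
  simp only [Qf, Cfsg.quadFormOdd, Fin.sum_univ_three, Qt, vt]
  ring

/-- the action on vectors -/
instance actV : MulAction O V where
  smul g v := (g.1.1 : Matrix I7 I7 K) *ᵥ v
  one_smul v := Matrix.one_mulVec v
  mul_smul g h v := by
    change (g.1.1 * h.1.1 : Matrix I7 I7 K) *ᵥ v = g.1.1 *ᵥ (h.1.1 *ᵥ v)
    rw [Matrix.mulVec_mulVec]

theorem smul_def (g : O) (v : V) : g • v = (g.1.1 : Matrix I7 I7 K) *ᵥ v := rfl

theorem Q_smul (g : O) (v : V) : Qf (g • v) = Qf v := g.2 v v

theorem smul_add' (g : O) (u v : V) : g • (u + v) = g • u + g • v := Matrix.mulVec_add _ _ _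

theorem smul_neg' (g : O) (u : V) : g • (-u) = -(g • u) := Matrix.mulVec_neg _ _

/-- an orthogonal basis, in coordinates -/
def Et : ℕ → T7
  | 0 => (1, 0, 0, 0, 0, 0, 0)
  | 1 => (0, 1, 0, 0, 1, 0, 0)
  | 2 => (0, 1, 0, 0, 2, 0, 0)
  | 3 => (0, 0, 1, 0, 0, 1, 0)
  | 4 => (0, 0, 1, 0, 0, 2, 0)
  | 5 => (0, 0, 0, 1, 0, 0, 1)
  | _ => (0, 0, 0, 1, 0, 0, 2)

/-- an orthogonal basis -/
def E (k : ℕ) : V := tv (Et k)

/-- the pointwise stabiliser of the first `k` basis vectors -/
def Fx (k : ℕ) : Subgroup O where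
  carrier := {g | ∀ j, j < k → g • E j = E j}
  one_mem' := fun j _ => one_smul _ _
  mul_mem' := by
    intro a b ha hb j hj
    rw [mul_smul, hb j hj, ha j hj]
  inv_mem' := by
    intro a ha j hj
    have := ha j hj
    rw [← this, inv_smul_smul, this]

/-- the condition on the image of the `k`-th basis vector -/
def pred (k : ℕ) (q : T7) : Prop := Qt q = Qt (Et k) ∧ ∀ j, j < k → Qt (q + Et j) = Qt (Et k + Et j)

instance (k : ℕ) : DecidablePred (pred k) := fun q => by unfold pred; infer_instance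

/-- the numbers of possible images -/
def nn : ℕ → ℕ
  | 0 => 756
  | 1 => 234
  | 2 => 90
  | 3 => 24
  | 4 => 12
  | _ => 2

set_option maxRecDepth 100000 in
theorem count_le : ∀ k, k < 7 → (Finset.univ.filter (pred k)).card ≤ nn k := by decide +kernel

theorem card_le_mul_fix {Γ X : Type*} [Group Γ] [MulAction Γ X] [Finite Γ] (P P' : Subgroup Γ)
    (x : X) (c : ℕ) (T : Set X) (hT : T.Finite) (hc : T.ncard ≤ c) (h : ∀ g ∈ P, g • x ∈ T)
    (hP' : ∀ g ∈ P, g • x = x → g ∈ P') : Nat.card P ≤ c * Nat.card P' := by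
  have h1 := Cfsg.Agent.Lib.Helper86.Sp4Card.card_le_mul_stab (Γ := P) x c T hT hc
    (fun g => h g.1 g.2)
  let f : MulAction.stabilizer P x → P' := fun g =>
    ⟨g.1.1, hP' g.1.1 g.1.2 (MulAction.mem_stabilizer_iff.1 g.2)⟩
  have hf : Function.Injective f := by
    intro a b hab
    apply Subtype.ext
    apply Subtype.ext
    exact congrArg (fun z : P' => (z : Γ)) hab
  exact h1.trans (Nat.mul_le_mul_left _ (Nat.card_le_card_of_injective f hf))

theorem step (k : ℕ) (hk : k < 7) : Nat.card (Fx k) ≤ nn k * Nat.card (Fx (k + 1)) := by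
  apply card_le_mul_fix (Fx k) (Fx (k + 1)) (E k) (nn k)
    {u : V | pred k (vt u)} (Set.toFinite _)
  · have hsub : {u : V | pred k (vt u)} ⊆ tv '' ((Finset.univ.filter (pred k) : Finset T7) : Set T7) := by
      intro u hu
      exact ⟨vt u, by simpa using hu, tv_vt u⟩
    calc ({u : V | pred k (vt u)}).ncard
        ≤ (tv '' ((Finset.univ.filter (pred k) : Finset T7) : Set T7)).ncard :=
          Set.ncard_le_ncard hsub (Set.toFinite _)
      _ ≤ ((Finset.univ.filter (pred k) : Finset T7) : Set T7).ncard :=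
          Set.ncard_image_le (Set.toFinite _)
      _ = (Finset.univ.filter (pred k)).card := Set.ncard_coe_finset _
      _ ≤ nn k := count_le k hk
  · intro g hg
    refine ⟨?_, fun j hj => ?_⟩
    · rw [← Q_eq, Q_smul, Q_eq]
      rfl
    · have h1 : vt (g • E k) + Et j = vt (g • (E k + E j)) := by
        rw [smul_add', hg j hj]
        rfl
      rw [h1, ← Q_eq, Q_smul, Q_eq]
      rfl
  · intro g hg hgk j hj
    rcases Nat.lt_succ_iff_lt_or_eq.1 hj with h | rfl
    · exact hg j h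
    · exact hgk

/-- the matrix of the basis -/
def Bm : Matrix I7 (Fin 7) K := fun i j => E j.1 i

/-- the inverse of the matrix of the basis -/
def Bi : Matrix (Fin 7) I7 K := fun j i => (2 : K) * Qt (Et j.1) * E j.1 (match i with
  | .inl u => .inl u
  | .inr (.inl l) => .inr (.inr l)
  | .inr (.inr l) => .inr (.inl l)) * (match i with
  | .inl _ => 2
  | _ => 1)

theorem Bm_Bi : Bm * Bi = 1 := by decide +kernel

theorem Fx_seven : Fx 7 = ⊥ := by
  rw [Subgroup.eq_bot_iff_forall]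
  intro g hg
  have h1 : (g.1.1 : Matrix I7 I7 K) * Bm = Bm := by
    ext i j
    have := congrFun (hg j.1 j.2) i
    rw [smul_def] at this
    rw [Matrix.mul_apply]
    exact this
  have h2 : (g.1.1 : Matrix I7 I7 K) = 1 := by
    calc (g.1.1 : Matrix I7 I7 K) = g.1.1 * (Bm * Bi) := by rw [Bm_Bi, mul_one]
      _ = (g.1.1 * Bm) * Bi := (Matrix.mul_assoc _ _ _).symm
      _ = 1 := by rw [h1, Bm_Bi]
  apply Subtype.ext
  apply Units.ext
  exact h2

theorem Fx_zero : Fx 0 = ⊤ := by
  rw [eq_top_iff]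
  intro g _ j hj
  exact absurd hj (Nat.not_lt_zero j)

/-- the order of the isometry group is at most `18341406720` -/
theorem card_O_le : Nat.card O ≤ 18341406720 := by
  have h0 := step 0 (by norm_num)
  have h1 := step 1 (by norm_num)
  have h2 := step 2 (by norm_num)
  have h3 := step 3 (by norm_num)
  have h4 := step 4 (by norm_num)
  have h5 := step 5 (by norm_num)
  have h6 := step 6 (by norm_num)
  have h7 : Nat.card (Fx 7) = 1 := by rw [Fx_seven, Subgroup.card_bot]
  have h8 : Nat.card (Fx 0) = Nat.card O := by rw [Fx_zero, Subgroup.card_top]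
  simp only [nn] at h0 h1 h2 h3 h4 h5 h6
  rw [h7] at h6
  rw [h8] at h0
  calc Nat.card O ≤ 756 * Nat.card (Fx 1) := h0
    _ ≤ 756 * (234 * Nat.card (Fx 2)) := Nat.mul_le_mul_left _ h1
    _ ≤ 756 * (234 * (90 * Nat.card (Fx 3))) := by gcongr
    _ ≤ 756 * (234 * (90 * (24 * Nat.card (Fx 4)))) := by gcongr
    _ ≤ 756 * (234 * (90 * (24 * (12 * Nat.card (Fx 5))))) := by gcongr
    _ ≤ 756 * (234 * (90 * (24 * (12 * (2 * Nat.card (Fx 6)))))) := by gcongr
    _ ≤ 756 * (234 * (90 * (24 * (12 * (2 * (2 * 1)))))) := by gcongr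
    _ = 18341406720 := by norm_num

end Cfsg.Agent.Lib.Helper86.O73
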